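import Cfsg.Agent.Lib.Mult.Glue
import Cfsg.Agent.Lib.Grp.J3.Main
import Cfsg.Agent.Lib.Mult.J3.P2
import Cfsg.Agent.Lib.Mult.J3.P3

set_option autoImplicit false
set_option maxRecDepth 100000
set_option Elab.async false

namespace Cfsg.Agent.Mult.J3

open Cfsg.Agent.CG Cfsg.Agent.CG.J3

theorem pb5 : PB PG 5 [] :=
  pb_cyc base card (a := 0) (d := 2) (v := [22]) (by norm_num) (by decide +kernel)

theorem pb17 : PB PG 17 [] :=
  pb_cyc base card (a := 0) (d := 1) (v := [1,47]) (by norm_num) (by decide +kernel)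

theorem pb19 : PB PG 19 [] :=
  pb_cyc base card (a := 0) (d := 1) (v := [5]) (by norm_num) (by decide +kernel)

theorem mb : MB PG [3] :=
  PBs.mb (PBs.cons pb2 (PBs.cons pb3 (PBs.cons pb5 (PBs.cons pb17 (PBs.cons pb19 PBs.nil))))) card
    (primes_of_eq_prod (ps := [2,3,5,17,19]) (es := [7,5,1,1,1]) (by simp only [List.forall_mem_cons]; norm_num) (by decide +kernel))

end Cfsg.Agent.Mult.J3
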